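import Cfsg.Agent.H377.CV.M9Red
import Cfsg.Agent.H357.M9.Tr

/-!
# M9 of S3442, the assembly (helper377)

`m9_of` : `Hit 2 (PSU 3 F q)`, `q` a Mersenne prime, from A2 (`NoFix`) and B (an element of order dividing `q² - q + 1` with a
fixed vector).
-/

set_option autoImplicit false

namespace Cfsg.Agent.H377.CV.M9

open Finset Module Cfsg Cfsg.Agent.H373.CV Cfsg.Agent.H377.CV Cfsg.Agent.H357.M9

universe u v

variable {F : Type v} [Field F] [Fintype F] {q a : ℕ}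

/-- **The assembly of M9.** -/
theorem m9_of (hF : Fintype.card F = q ^ 2) (hq : q.Prime) (ha : q + 1 = 2 ^ a) (hq3 : q ≠ 3)
    (A2 : ∀ (k : Type) [Field k] [CharP k 2] [IsAlgClosed k] (V : Type u) [AddCommGroup V] [Module k V]
      [FiniteDimensional k V] (ρ : SU 3 F q →* Module.End k V),
      (∀ U : Submodule k V, (∀ g, ∀ u ∈ U, ρ g u ∈ U) → U = ⊥ ∨ U = ⊤) → (∃ g, ρ g ≠ 1) →
      (∀ y : SU 3 F q, orderOf y = 2 ^ (a + 1) → ∑ i ∈ range (2 ^ (a + 1)), ρ (y ^ i) = 0) → NoFix hF ρ)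
    (B : ∀ (k : Type) [Field k] [CharP k 2] [IsAlgClosed k] (V : Type u) [AddCommGroup V] [Module k V]
      [FiniteDimensional k V] (ρ : SU 3 F q →* Module.End k V),
      (∃ g, LinearMap.trace k V (ρ g) ≠ 0) → NoFix hF ρ →
      ∃ x : SU 3 F q, x ≠ 1 ∧ x ^ (q ^ 2 - q + 1) = 1 ∧ ∃ w, w ≠ 0 ∧ ρ x w = w) :
    Hit.{u, v} 2 (PSU 3 F q) := by
  have hq2 := hq.two_le
  have hodd := odd_q hq ha hq3
  have hsim : IsSimpleGroup (PSU 3 F q) := Cfsg.Agent.S0283.result hF 3 le_rfl (by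
    rintro ⟨-, rfl⟩
    exact absurd hodd (by decide))
  refine Hit.of_faithful Nat.prime_two (X15.triv hF hodd Nat.prime_two ?_) ?_
  · rw [X15.sq_sub hq2]
    obtain ⟨m, hm⟩ := hodd
    exact Dvd.dvd.mul_right ⟨m + 1, by omega⟩ _
  intro W _ _ _ hW φ hinj hirr
  by_contra hcon
  push Not at hcon
  obtain ⟨k, i1, i2, i3, V, i4, i5, i6, ρ, h1, h2, h3, h4, h5⟩ := reduction hF hq ha hq3 hW φ hinj hirr (by
    intro x hx w
    by_contra hw
    obtain ⟨y, hy⟩ := hcon x w hw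
    exact hx y hy)
  have hX : NoFix hF ρ := A2 k V ρ h1 h2 h3
  obtain ⟨x, hx1, hxt, w, hw0, hw⟩ := B k V ρ h4 hX
  exact hw0 (h5 x hx1 hxt w hw)

end Cfsg.Agent.H377.CV.M9
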