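import Cfsg.Agent.H377.CV.X15
import Cfsg.Agent.H373.CV.Irr
import Cfsg.Agent.H662.Burnside
import Cfsg.Agent.S0279

/-!
# M9 of S3442, the reduction (helper377)

`exists_irr` : a faithful irreducible `𝔽_r L`-module gives an irreducible module over the algebraic closure;
`reduction` : `PSU_3(q)`, `q` a Mersenne prime.
-/

set_option autoImplicit false
set_option linter.unusedSectionVars false

namespace Cfsg.Agent.H377.CV.M9

open Finset Module Cfsg Cfsg.Agent.H373.CV Cfsg.Agent.H377.CV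

universe u v w

section irr

variable {L : Type v} [Group L] {W : Type u} [AddCommGroup W] [Finite W] {k : Type w} [Field k]

/-- **An irreducible submodule of the dual.** -/
theorem exists_irr [Nontrivial W] {r : ℕ} [Fact r.Prime] [CharP k r] (hW : ∀ w : W, r • w = 0)
    (φ : L →* AddMonoid.End W) (hφ : ∃ g, φ g ≠ 1)
    (hirr : ∀ U : AddSubgroup W, (∀ x : L, ∀ w ∈ U, φ x w ∈ U) → U = ⊥ ∨ U = ⊤) :
    ∃ U : Submodule k (W →+ k), U ≠ ⊥ ∧ (∀ g, ∀ u ∈ U, rho k φ g u ∈ U) ∧
      (∀ U' : Submodule k (W →+ k), U' ≤ U → (∀ g, ∀ u ∈ U', rho k φ g u ∈ U') → U' = ⊥ ∨ U' = U) ∧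
      ∃ g, ∃ u ∈ U, rho k φ g u ≠ u := by
  let S : Set (Submodule k (W →+ k)) := {U | U ≠ ⊥ ∧ ∀ g, ∀ u ∈ U, rho k φ g u ∈ U}
  have hne : S.Nonempty := by
    refine ⟨⊤, ?_, fun _ _ _ => Submodule.mem_top⟩
    obtain ⟨w, hw⟩ := exists_ne (0 : W)
    obtain ⟨f, hf⟩ := exists_ne_zero (k := k) hW hw
    intro h
    apply hf
    have h1 : f ∈ (⊤ : Submodule k (W →+ k)) := Submodule.mem_top
    rw [h, Submodule.mem_bot] at h1
    rw [h1]
    rfl
  have hwf : WellFounded (fun a b : Submodule k (W →+ k) => a < b) := wellFounded_lt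
  obtain ⟨U, hUS, hmin⟩ := hwf.has_min S hne
  refine ⟨U, hUS.1, hUS.2, ?_, ?_⟩
  · intro U' hle hU'
    by_cases h : U' = ⊥
    · exact Or.inl h
    · right
      by_contra hcon
      exact hmin U' ⟨h, hU'⟩ (lt_of_le_of_ne hle hcon)
  · by_contra hcon
    push Not at hcon
    obtain ⟨f, hfU, hf⟩ := Submodule.exists_mem_ne_zero_of_ne_bot hUS.1
    have hinv : ∀ (g : L) (w : W), f (φ g w) = f w := by
      intro g w
      have h1 := congrArg (fun F : W →+ k => F w) (hcon g⁻¹ f hfU)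
      change f (φ g⁻¹⁻¹ w) = f w at h1
      rwa [inv_inv] at h1
    rcases hirr f.ker (by
      intro x w hw
      rw [AddMonoidHom.mem_ker] at hw ⊢
      rw [hinv, hw]) with h | h
    · obtain ⟨g, hg⟩ := hφ
      apply hg
      apply AddMonoidHom.ext
      intro w
      have h1 : φ g w - w ∈ f.ker := by
        rw [AddMonoidHom.mem_ker, map_sub, hinv, sub_self]
      rw [h, AddSubgroup.mem_bot] at h1
      exact sub_eq_zero.1 h1
    · apply hf
      apply AddMonoidHom.ext
      intro w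
      have h1 : w ∈ f.ker := by rw [h]; trivial
      exact h1

/-- the norm on the dual -/
theorem rho_norm {φ : L →* AddMonoid.End W} {x : L} (h : ∀ w, ∑ i ∈ range (orderOf x), φ (x ^ i) w = 0) :
    ∑ i ∈ range (orderOf x), rho k φ (x ^ i) = 0 := by
  have h3 := rho_norm_eq_zero (k := k) φ h
  have h4 : ∑ i ∈ range (orderOf x), rho k φ (x ^ i) = rho k φ (x ^ (orderOf x - 1)) * ∑ i ∈ range (orderOf x), rho k φ (x⁻¹ ^ i) := by
    rw [Finset.mul_sum, ← Finset.sum_range_reflect]
    refine Finset.sum_congr rfl fun i hi => ?_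
    rw [← map_mul]
    congr 1
    have h5 := Finset.mem_range.1 hi
    rw [inv_pow, eq_mul_inv_iff_mul_eq, ← pow_add]
    congr 1
    omega
  rw [h4, h3, mul_zero]

end irr

section burnside

variable {G : Type v} [Group G] {k : Type w} [Field k] [IsAlgClosed k] {V : Type u} [AddCommGroup V] [Module k V]
  [FiniteDimensional k V] [Nontrivial V]

/-- an irreducible module has an element with nonzero trace -/
theorem exists_trace_ne (ρ : G →* Module.End k V)
    (hirr : ∀ U : Submodule k V, (∀ g, ∀ u ∈ U, ρ g u ∈ U) → U = ⊥ ∨ U = ⊤) : ∃ g, LinearMap.trace k V (ρ g) ≠ 0 := by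
  by_contra hcon
  push Not at hcon
  let ρ' : Representation k G V := ρ
  have hI : ρ'.IsIrreducible := by
    rw [Cfsg.Agent.H662.KeyAbs.isIrreducible_iff]
    exact ⟨inferInstance, fun S hS => hirr S hS⟩
  have hspan := Cfsg.Agent.H662.KeyAbs.span_range_eq_top ρ' hI
  have htr : ∀ f : Module.End k V, LinearMap.trace k V f = 0 := by
    intro f
    have hf : f ∈ Submodule.span k (Set.range ρ') := by rw [hspan]; exact Submodule.mem_top
    refine Submodule.span_induction ?_ ?_ ?_ ?_ hf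
    · rintro _ ⟨g, rfl⟩
      exact hcon g
    · exact map_zero _
    · intro x y _ _ hx hy
      rw [map_add, hx, hy, add_zero]
    · intro c x _ hx
      rw [map_smul, hx, smul_zero]
  obtain ⟨u, hu⟩ := exists_ne (0 : V)
  obtain ⟨f, hf⟩ : ∃ f : Module.Dual k V, f u ≠ 0 := by
    by_contra h
    push Not at h
    exact hu ((Module.forall_dual_apply_eq_zero_iff k u).1 h)
  have h1 := htr ((LinearMap.toSpanSingleton k V u).comp f)
  rw [LinearMap.trace_comp_comm'] at h1
  have h2 : f.comp (LinearMap.toSpanSingleton k V u) = f u • LinearMap.id := by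
    ext
    simp
  rw [h2, map_smul, LinearMap.trace_id, finrank_self, Nat.cast_one, smul_eq_mul, mul_one] at h1
  exact hf h1

end burnside

section psu

variable {F : Type v} [Field F] [Fintype F] {q a : ℕ}

theorem charP_of (hF : Fintype.card F = q ^ 2) (hq : q.Prime) : CharP F q := by
  obtain ⟨p, hp⟩ := CharP.exists F
  have hpp : p.Prime := CharP.char_is_prime F p
  have : Fact p.Prime := ⟨hpp⟩
  obtain ⟨n, -, hn⟩ := FiniteField.card F p
  have h1 : q ∣ p ^ (n : ℕ) := by rw [← hn, hF]; exact dvd_pow_self q two_ne_zero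
  have h2 : q = p := (Nat.prime_dvd_prime_iff_eq hq hpp).1 (hq.dvd_of_dvd_pow h1)
  rw [h2]
  exact hp

variable (hF : Fintype.card F = q ^ 2) (hq : q.Prime) (ha : q + 1 = 2 ^ a) (hq3 : q ≠ 3)
include hF hq ha hq3

omit hF in
theorem a_ge : 3 ≤ a := by
  have h2 := hq.two_le
  by_contra hlt
  have : a = 0 ∨ a = 1 ∨ a = 2 := by omega
  rcases this with rfl | rfl | rfl
  · omega
  · omega
  · omega

omit hF in
theorem three_not : ¬ 3 ∣ q + 1 := by
  rw [ha]
  intro h
  exact absurd (Nat.prime_three.dvd_of_dvd_pow h) (by norm_num)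

omit hF in
theorem odd_q : Odd q := by
  have h3 := a_ge hq ha hq3
  obtain ⟨b, rfl⟩ : ∃ b, a = b + 1 := ⟨a - 1, by omega⟩
  rw [pow_succ] at ha
  have : 1 ≤ 2 ^ b := Nat.one_le_two_pow
  exact ⟨2 ^ b - 1, by omega⟩

omit hF in
theorem gcd_one : Nat.gcd 3 (q + 1) = 1 := (Nat.prime_three.coprime_iff_not_dvd).2 (three_not hq ha hq3)

/-- `2 o` is no element order -/
theorem not_two_mul {o : ℕ} (ho : o ∣ q ^ 2 - q + 1) (h1 : o ≠ 1) (y : PSU 3 F q) : orderOf y ≠ 2 * o := by
  intro hy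
  have hq2 := hq.two_le
  have : Fact q.Prime := ⟨hq⟩
  have hc := charP_of hF hq
  have hodd := odd_q hq ha hq3
  have hqne : q ≠ 2 := by
    rintro rfl
    exact absurd hodd (by decide)
  obtain ⟨s, hs, hso⟩ := Nat.exists_prime_and_dvd h1
  have hst := hso.trans ho
  have hsy : s ∣ orderOf y := by rw [hy]; exact hso.mul_left 2
  have hs3 : s ≠ 3 := by
    rintro rfl
    rw [X15.three_eq hq2] at hst
    have h3 : 3 ∣ (q + 1) * (q - 2) := (Nat.dvd_add_left (dvd_refl 3)).1 hst
    rcases (Nat.Prime.dvd_mul Nat.prime_three).1 h3 with h4 | h4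
    · exact three_not hq ha hq3 h4
    · obtain ⟨m, hm⟩ := h4
      exact three_not hq ha hq3 ⟨m + 1, by omega⟩
  have hs1 : ¬ s ∣ q + 1 := fun h => X15.not_t' hq2 hs h hs3 hst
  have hsm : ¬ s ∣ q - 1 := fun h => X15.not_t hq2 hs h hst
  rcases X15.ord hF (p := q) hqne y with h | h | h | h
  · exact hs1 (hsy.trans h)
  · rcases (Nat.Prime.dvd_mul hs).1 ((hsy.mul_left _).trans h) with h5 | h5
    · have h6 : s = q := (Nat.prime_dvd_prime_iff_eq hs hq).1 h5
      rw [h6, X15.one_eq hq2] at hst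
      have h7 := (Nat.dvd_add_right (Dvd.intro _ rfl : q ∣ q * (q - 1))).1 hst
      exact hq.one_lt.ne' (Nat.dvd_one.1 h7)
    · exact hs1 h5
  · rw [X15.sq_sub hq2] at h
    rcases (Nat.Prime.dvd_mul hs).1 ((hsy.mul_left _).trans h) with h5 | h5
    · exact hs1 h5
    · exact hsm h5
  · have h2y : 2 ∣ orderOf y := by rw [hy]; exact Dvd.intro _ rfl
    exact X15.odd_t hq2 ((h2y.mul_left _).trans h)

/-- `2 ^ (a + 2)` is no element order -/
theorem not_two_pow (y : PSU 3 F q) : orderOf y ≠ 2 * 2 ^ (a + 1) := by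
  intro hy
  have hq2 := hq.two_le
  have : Fact q.Prime := ⟨hq⟩
  have hc := charP_of hF hq
  have hodd := odd_q hq ha hq3
  have ha3 := a_ge hq ha hq3
  have hqne : q ≠ 2 := by
    rintro rfl
    exact absurd hodd (by decide)
  have hy' : orderOf y = 2 ^ (a + 2) := by rw [hy]; ring
  have hle : ¬ 2 ^ (a + 2) ∣ 2 ^ a := by
    intro h
    have := (Nat.pow_dvd_pow_iff_le_right (by norm_num : 1 < 2)).1 h
    omega
  rcases X15.ord hF (p := q) hqne y with h | h | h | h
  · rw [hy', ha] at h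
    exact hle h
  · have h1 := (Dvd.intro_left _ rfl).trans h
    rw [hy', ha] at h1
    have hcop : Nat.Coprime (2 ^ (a + 2)) q := Nat.Coprime.pow_left _ ((Nat.coprime_primes Nat.prime_two hq).2 (Ne.symm hqne))
    exact hle (hcop.dvd_of_dvd_mul_left h1)
  · have h1 := (Dvd.intro_left _ rfl).trans h
    have e : q - 1 = 2 * (2 ^ (a - 1) - 1) := by
      obtain ⟨b, rfl⟩ : ∃ b, a = b + 1 := ⟨a - 1, by omega⟩
      rw [Nat.add_sub_cancel]
      rw [pow_succ] at ha
      omega
    rw [hy', X15.sq_sub hq2, ha, e] at h1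
    have e2 : 2 ^ (a + 2) = 2 ^ a * (2 * 2) := by ring
    rw [e2] at h1
    have h3 := Nat.dvd_of_mul_dvd_mul_left (by norm_num) (Nat.dvd_of_mul_dvd_mul_left (pow_pos (by norm_num) a) h1)
    have h4 : 2 ∣ 2 ^ (a - 1) := dvd_pow_self 2 (by omega)
    have h5 : 1 ≤ 2 ^ (a - 1) := Nat.one_le_two_pow
    omega
  · have h2y : 2 ∣ orderOf y := by rw [hy]; exact Dvd.intro _ rfl
    exact X15.odd_t hq2 ((h2y.mul_left _).trans h)

omit hq3 hq ha in
/-- the projection is injective -/
theorem mk_injective (h1 : Nat.gcd 3 (q + 1) = 1) :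
    Function.Injective (QuotientGroup.mk' (Subgroup.center (SU 3 F q))) := by
  have h2 := Cfsg.Agent.S0279.result hF 3 le_rfl
  rw [h1] at h2
  rw [injective_iff_map_eq_one]
  intro x hx
  have h3 : x ∈ Subgroup.center (SU 3 F q) := (QuotientGroup.eq_one_iff x).1 hx
  rw [Subgroup.card_eq_one] at h2
  rw [h2, Subgroup.mem_bot] at h3
  exact h3

/-- **PIECE A1, the reduction.** -/
theorem reduction {W : Type u} [AddCommGroup W] [Finite W] [Nontrivial W] (hW : ∀ w : W, 2 • w = 0)
    (φ : PSU 3 F q →* AddMonoid.End W) (hinj : Function.Injective φ)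
    (hirr : ∀ U : AddSubgroup W, (∀ x : PSU 3 F q, ∀ w ∈ U, φ x w ∈ U) → U = ⊥ ∨ U = ⊤)
    (hz : ∀ x : PSU 3 F q, (∀ y : PSU 3 F q, orderOf y ≠ 2 * orderOf x) →
      ∀ w : W, ∑ i ∈ range (orderOf x), φ (x ^ i) w = 0) :
    ∃ (k : Type) (_ : Field k) (_ : IsAlgClosed k) (_ : CharP k 2) (V : Type u) (_ : AddCommGroup V) (_ : Module k V)
      (_ : FiniteDimensional k V) (ρ : SU 3 F q →* Module.End k V),
      (∀ U : Submodule k V, (∀ g, ∀ u ∈ U, ρ g u ∈ U) → U = ⊥ ∨ U = ⊤) ∧ (∃ g, ρ g ≠ 1) ∧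
      (∀ y : SU 3 F q, orderOf y = 2 ^ (a + 1) → ∑ i ∈ range (2 ^ (a + 1)), ρ (y ^ i) = 0) ∧
      (∃ g, LinearMap.trace k V (ρ g) ≠ 0) ∧
      (∀ x : SU 3 F q, x ≠ 1 → x ^ (q ^ 2 - q + 1) = 1 → ∀ w, ρ x w = w → w = 0) := by
  have hp2 : Fact (Nat.Prime 2) := ⟨Nat.prime_two⟩
  have hq2 := hq.two_le
  obtain ⟨k, _, _, _⟩ := exists_field 2 Nat.prime_two
  have hfin : Finite (SU 3 F q) := inferInstance
  have hsim : IsSimpleGroup (PSU 3 F q) := Cfsg.Agent.S0283.result hF 3 le_rfl (by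
    rintro ⟨-, rfl⟩
    exact absurd (odd_q hq ha hq3) (by decide))
  -- a nontrivial element
  have hφ : ∃ g, φ g ≠ 1 := by
    obtain ⟨g, hg⟩ := exists_ne (1 : PSU 3 F q)
    exact ⟨g, fun h => hg (hinj (h.trans (map_one φ).symm))⟩
  obtain ⟨U, hU0, hUst, hUirr, g₁, u₁, hu₁, hne₁⟩ := exists_irr (k := k) hW φ hφ hirr
  have hUnt : Nontrivial U := (Submodule.nontrivial_iff_ne_bot).2 hU0
  let pr := QuotientGroup.mk' (Subgroup.center (SU 3 F q))
  have hpr : Function.Surjective pr := QuotientGroup.mk'_surjective _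
  have hpri : Function.Injective pr := mk_injective hF (gcd_one hq ha hq3)
  let ρ : SU 3 F q →* Module.End k U :=
    { toFun := fun g => (rho k φ (pr g)).restrict (hUst (pr g))
      map_one' := by
        ext u : 2
        change rho k φ (pr 1) (u : W →+ k) = u
        rw [map_one, map_one]
        rfl
      map_mul' := fun a b => by
        ext u : 2
        change rho k φ (pr (a * b)) (u : W →+ k) = rho k φ (pr a) (rho k φ (pr b) u)
        rw [map_mul, map_mul]
        rfl }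
  have hρ : ∀ g (u : U), ((ρ g u : U) : W →+ k) = rho k φ (pr g) u := fun g u => rfl
  have hirr' : ∀ U' : Submodule k U, (∀ g, ∀ u ∈ U', ρ g u ∈ U') → U' = ⊥ ∨ U' = ⊤ := by
    intro U' hU'
    rcases hUirr (U'.map U.subtype) (Submodule.map_subtype_le U U') (by
      rintro g _ ⟨u, hu, rfl⟩
      obtain ⟨g, rfl⟩ := hpr g
      exact ⟨ρ g u, hU' g u hu, rfl⟩) with h | h
    · left
      rw [eq_bot_iff]
      intro u hu
      have h1 : (u : W →+ k) ∈ U'.map U.subtype := ⟨u, hu, rfl⟩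
      rw [h, Submodule.mem_bot] at h1
      exact (Submodule.mem_bot k).2 (Subtype.ext h1)
    · right
      rw [eq_top_iff]
      intro u _
      have h1 : (u : W →+ k) ∈ U'.map U.subtype := by rw [h]; exact u.2
      obtain ⟨u', hu', h2⟩ := h1
      rw [← Subtype.ext h2]
      exact hu'
  -- norms
  have hnorm : ∀ y : SU 3 F q, (∀ x : PSU 3 F q, orderOf x ≠ 2 * orderOf y) →
      ∑ i ∈ range (orderOf y), ρ (y ^ i) = 0 := by
    intro y hy
    have ho : orderOf (pr y) = orderOf y := orderOf_injective pr hpri y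
    have h1 := rho_norm (k := k) (hz (pr y) (by rw [ho]; exact hy))
    rw [ho] at h1
    ext u : 2
    rw [LinearMap.sum_apply, AddSubmonoidClass.coe_finsetSum]
    have h2 := congrArg (fun f : Module.End k (W →+ k) => f (u : W →+ k)) h1
    rw [LinearMap.sum_apply] at h2
    refine Eq.trans (Finset.sum_congr rfl fun i _ => ?_) h2
    rw [hρ, map_pow]
  refine ⟨k, inferInstance, inferInstance, inferInstance, U, inferInstance, inferInstance, inferInstance, ρ, hirr', ?_, ?_,
    ?_, ?_⟩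
  · obtain ⟨g, rfl⟩ := hpr g₁
    refine ⟨g, fun h => hne₁ ?_⟩
    have h1 := congrArg (fun f : Module.End k U => ((f ⟨u₁, hu₁⟩ : U) : W →+ k)) h
    exact h1
  · intro y hy
    have h1 := hnorm y (by rw [hy]; exact not_two_pow hF hq ha hq3)
    rwa [hy] at h1
  · exact exists_trace_ne (G := SU 3 F q) (k := k) (V := U) ρ hirr'
  · intro x hx1 hxt w hw
    have hod := orderOf_dvd_of_pow_eq_one hxt
    have ho1 : orderOf x ≠ 1 := fun h => hx1 (orderOf_eq_one_iff.1 h)
    have h1 := hnorm x (fun y => not_two_mul hF hq ha hq3 hod ho1 y)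
    have h2 := congrArg (fun f : Module.End k U => f w) h1
    rw [LinearMap.sum_apply] at h2
    have h3 : ∀ i : ℕ, ρ (x ^ i) w = w := by
      intro i
      induction i with
      | zero => rw [pow_zero, map_one]; rfl
      | succ i ih =>
        rw [pow_succ, map_mul, Module.End.mul_apply, hw]
        exact ih
    rw [Finset.sum_congr rfl (fun i _ => h3 i), Finset.sum_const, Finset.card_range, ← Nat.cast_smul_eq_nsmul k] at h2
    refine (smul_eq_zero.1 (h2 : ((orderOf x : ℕ) : k) • w = 0)).resolve_left ?_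
    rw [CharP.cast_eq_zero_iff k 2]
    intro h4
    exact X15.odd_t hq2 (h4.trans hod)

end psu

end Cfsg.Agent.H377.CV.M9
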